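import Cfsg.Agent.Lib.Classical.SympSimple
import Cfsg.Agent.Lib.SchurMult.GolayEngine
import Cfsg.Agent.Lib.SchurMult.SpSix.Data
import Cfsg.Prelude.Def_Classical

/-!
Transvections of the symplectic space of dimension six over two elements acting on bit vectors, and the
multiplier certificates evaluated through them.
-/

set_option autoImplicit false
set_option maxRecDepth 100000

namespace Cfsg.Agent.Lib.SchurMult.SpSix

open Cfsg Cfsg.Agent.Lib Cfsg.Agent.Lib.Forms Cfsg.Agent.Lib.Classical Matrix

/-- The matrix group. -/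
abbrev Sp := ↥(Matrix.symplecticGroup (Fin 3) (ZMod 2))

/-- The simple group. -/
abbrev Q := Cfsg.PSp 3 (ZMod 2)

/-- The position of a coordinate. -/
def pos : Fin 3 ⊕ Fin 3 → ℕ := Sum.elim (fun i => i.1) (fun i => i.1 + 3)

/-- The vector of a bit code. -/
def bits (x : ℕ) : Fin 3 ⊕ Fin 3 → ZMod 2 := fun i => (x / 2 ^ pos i % 2 : ℕ)

/-- A bit of a code. -/
def bit (x i : ℕ) : ℕ := x / 2 ^ i % 2

/-- The pairing of two bit codes. -/
def pair (x y : ℕ) : ℕ :=
  (bit x 0 * bit y 3 + bit x 3 * bit y 0 + bit x 1 * bit y 4 + bit x 4 * bit y 1 + bit x 2 * bit y 5 +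
    bit x 5 * bit y 2) % 2

/-- The transvection of a code applied to a code. -/
def act (v x : ℕ) : ℕ := bif Nat.beq (pair x v) 1 then x ^^^ v else x

/-- The transvection of a code. -/
noncomputable def tv (v : ℕ) : Sp := spT 3 (bits v) 1

theorem act_formula : ∀ v < 64, ∀ x < 64, act v x < 64 ∧
    bits (act v x) = bits x +
      (∑ i : Fin 3, (bits x (Sum.inr i) * bits v (Sum.inl i) - bits x (Sum.inl i) * bits v (Sum.inr i))) •
        bits v := by
  decide +kernel

theorem bits_surj : ∀ f : Fin 3 ⊕ Fin 3 → ZMod 2, ∃ x < 64, bits x = f := by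
  intro f
  refine ⟨(f (.inl 0)).val + 2 * (f (.inl 1)).val + 4 * (f (.inl 2)).val + 8 * (f (.inr 0)).val +
    16 * (f (.inr 1)).val + 32 * (f (.inr 2)).val, ?_, ?_⟩
  · have h : ∀ a : ZMod 2, a.val ≤ 1 := by decide
    have := h (f (.inl 0)); have := h (f (.inl 1)); have := h (f (.inl 2))
    have := h (f (.inr 0)); have := h (f (.inr 1)); have := h (f (.inr 2))
    omega
  · have h : ∀ a b c d e g : ZMod 2, ∀ i, bits (a.val + 2 * b.val + 4 * c.val + 8 * d.val + 16 * e.val + 32 * g.val) i =
        Sum.elim ![a, b, c] ![d, e, g] i := by decide +kernel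
    funext i
    rw [h]
    rcases i with i | i <;> fin_cases i <;> rfl

theorem tv_mulVec {v x : ℕ} (hv : v < 64) (hx : x < 64) :
    (tv v : Matrix (Fin 3 ⊕ Fin 3) (Fin 3 ⊕ Fin 3) (ZMod 2)) *ᵥ bits x = bits (act v x) := by
  have hb : stdB 3 (ZMod 2) (bits x) (bits v) =
      ∑ i : Fin 3, (bits x (Sum.inr i) * bits v (Sum.inl i) - bits x (Sum.inl i) * bits v (Sum.inr i)) := by
    rw [stdB_apply, Cfsg.sympForm, dotProduct, Fintype.sum_sum_type, ← Finset.sum_add_distrib]
    refine Finset.sum_congr rfl fun i _ => ?_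
    simp only [CharTwo.sub_eq_add]
    simp [Matrix.mulVec, dotProduct, Fintype.sum_sum_type, Matrix.J, Matrix.one_apply, CharTwo.neg_eq]
    ring
  rw [tv, spT_mulVec, one_mul, hb, (act_formula v hv x hx).2]

/-- The action of a word of transvections. -/
def appW (w : List ℕ) (x : ℕ) : ℕ := w.foldr (fun v y => act (v % 64) y) x

/-- The element of a word of transvections. -/
noncomputable def eltM (w : List ℕ) : Sp := (w.map fun v => tv (v % 64)).prod

/-- The element of a word in the simple group. -/
noncomputable def elt (w : List ℕ) : Q := QuotientGroup.mk (eltM w)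

theorem eltM_mulVec : ∀ (w : List ℕ) {x : ℕ}, x < 64 → appW w x < 64 ∧
    (eltM w : Matrix (Fin 3 ⊕ Fin 3) (Fin 3 ⊕ Fin 3) (ZMod 2)) *ᵥ bits x = bits (appW w x)
  | [], x, hx => ⟨hx, by simp [eltM, appW]⟩
  | v :: w, x, hx => by
    obtain ⟨h1, h2⟩ := eltM_mulVec w hx
    have hv : v % 64 < 64 := Nat.mod_lt _ (by norm_num)
    refine ⟨(act_formula _ hv _ h1).1, ?_⟩
    simp only [eltM, appW, List.map_cons, List.prod_cons, List.foldr_cons] at h2 ⊢
    rw [Submonoid.coe_mul, ← mulVec_mulVec, h2]
    exact tv_mulVec hv h1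

theorem elt_append (v w : List ℕ) : elt (v ++ w) = elt v * elt w := by
  simp [elt, eltM, List.map_append, List.prod_append]

theorem center_eq_bot : Subgroup.center Sp = ⊥ := by
  apply Subgroup.eq_bot_of_card_eq
  rw [card_center_sp 3 (by norm_num), ZMod.card]
  rfl

theorem elt_inj {v w : List ℕ} (h : elt v = elt w) : eltM v = eltM w := by
  rw [elt, elt, QuotientGroup.eq, center_eq_bot, Subgroup.mem_bot, inv_mul_eq_one] at h
  exact h

/-- The key of a word. -/
def key (w : List ℕ) : ℕ :=
  appW w 1 + 64 * (appW w 2 + 64 * (appW w 4 + 64 * (appW w 8 + 64 * (appW w 16 + 64 * appW w 32))))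

/-- Two words have the same key. -/
def same (v w : List ℕ) : Bool := Nat.beq (key v) (key w)

theorem bits_inj : ∀ x < 64, ∀ y < 64, bits x = bits y → x = y := by decide +kernel

theorem key_congr {v w : List ℕ} (h : elt v = elt w) : key v = key w := by
  have h' := elt_inj h
  have e : ∀ x, x < 64 → appW v x = appW w x := fun x hx => by
    obtain ⟨a1, a2⟩ := eltM_mulVec v hx
    obtain ⟨b1, b2⟩ := eltM_mulVec w hx
    exact bits_inj _ a1 _ b1 (a2.symm.trans (h' ▸ b2))
  simp only [key, e 1 (by norm_num), e 2 (by norm_num), e 4 (by norm_num), e 8 (by norm_num),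
    e 16 (by norm_num), e 32 (by norm_num)]

theorem bits_pow : ∀ i : Fin 3 ⊕ Fin 3, bits (2 ^ pos i) = Pi.single i 1 := by decide +kernel

theorem same_specM {v w : List ℕ} (h : same v w = true) : eltM v = eltM w := by
  simp only [same, Nat.beq_eq] at h
  have e : ∀ i : Fin 3 ⊕ Fin 3, appW v (2 ^ pos i) = appW w (2 ^ pos i) := by
    have b : ∀ u : List ℕ, ∀ x < 64, appW u x < 64 := fun u x hx => (eltM_mulVec u hx).1
    have := b v 1 (by norm_num); have := b v 2 (by norm_num); have := b v 4 (by norm_num)
    have := b v 8 (by norm_num); have := b v 16 (by norm_num); have := b v 32 (by norm_num)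
    have := b w 1 (by norm_num); have := b w 2 (by norm_num); have := b w 4 (by norm_num)
    have := b w 8 (by norm_num); have := b w 16 (by norm_num); have := b w 32 (by norm_num)
    simp only [key] at h
    intro i
    rcases i with i | i <;> fin_cases i <;> norm_num [pos] <;> omega
  apply Subtype.ext
  refine Matrix.ext fun r c => ?_
  have hlt : 2 ^ pos c < 64 := by rcases c with c | c <;> fin_cases c <;> norm_num [pos]
  have e2 := (eltM_mulVec v hlt).2
  rw [e c, ← (eltM_mulVec w hlt).2, bits_pow] at e2
  simpa using congrFun e2 r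

theorem same_spec {v w : List ℕ} (h : same v w = true) : elt v = elt w :=
  congrArg (fun g : Sp => (QuotientGroup.mk g : Q)) (same_specM h)

/-- The word in given generators. -/
def gword (gens : List (List ℕ)) (w : List ℕ) : List ℕ := w.flatMap fun i => gens.getD i []

variable (D : Engine.Data) (gens conj : List (List ℕ)) (sorted keys : List ℕ)

/-- The relation checks. -/
def relOK : Bool :=
  (List.range D.nv).all fun k => same (gword gens (D.lhsAt k)) (gword gens (D.rhsAt k))

/-- The key checks. -/
def keyOK : Bool :=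
  decide (sorted.length = D.p ^ D.n) && sorted.all (fun k => decide (k < D.p ^ D.n)) &&
  sorted.map (fun k => key (gword gens (D.word k))) == keys && GolayEngine.increasing keys

/-- The check of an equation. -/
def eqnOK : Engine.Eqn → Bool
  | .cons _ _ => true
  | .fus k x y x' y' =>
    same (conj.getD k [] ++ gword gens x) (gword gens x' ++ conj.getD k []) &&
    same (conj.getD k [] ++ gword gens y) (gword gens y' ++ conj.getD k [])

variable {D gens conj sorted keys}

theorem ev_gword (w : List ℕ) : Engine.Data.ev (fun i => elt (gens.getD i [])) w = elt (gword gens w) := by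
  induction w with
  | nil => rfl
  | cons i w ih =>
    simp only [Engine.Data.ev, List.map_cons, List.prod_cons, gword, List.flatMap_cons] at ih ⊢
    rw [ih, elt_append]

theorem bound {Γ : Type} [Group Γ] [Finite Γ] {σ : Γ →* Q}
    (hσ : Cfsg.IsStemExtension σ) {p : ℕ} [Fact p.Prime] (hp : D.p = p)
    (hall : D.allOK = true) (hrel : relOK D gens = true) (hkey : keyOK D gens sorted keys = true)
    (heq : D.eqs.all (eqnOK gens conj) = true)
    (hcard : (Nat.card Q).factorization p = D.n) {k : ℕ} (hk : p ^ k ∣ Nat.card σ.ker) :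
    p ^ k ∣ D.bound := by
  simp only [keyOK, Bool.and_eq_true, List.all_eq_true, decide_eq_true_eq, beq_iff_eq] at hkey
  obtain ⟨⟨⟨hlen, hlt⟩, hkeys⟩, hinc0⟩ := hkey
  simp only [relOK, List.all_eq_true, List.mem_range] at hrel
  simp only [List.all_eq_true] at heq
  have hinc : GolayEngine.increasing (sorted.map fun k => key (gword gens (D.word k))) = true := by
    rw [hkeys]; exact hinc0
  refine Engine.bound_main D hσ hp hall (fun i => elt (gens.getD i [])) (fun i => elt (conj.getD i []))
    (fun j hj => ?_) (fun a ha b hb hab => ?_) (fun e he => ?_) hcard hk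
  · rw [ev_gword, ev_gword]
    exact same_spec (hrel j hj)
  · have hpw := GolayEngine.pairwise_of_increasing _ hinc
    have hnd : sorted.Nodup := List.Nodup.of_map _ (hpw.imp fun h => h.ne)
    have hperm : ∀ c, c < D.p ^ D.n → c ∈ sorted := by
      intro c hc
      have hsub : sorted.toFinset ⊆ Finset.range (D.p ^ D.n) := fun x hx =>
        Finset.mem_range.2 (hlt x (List.mem_toFinset.1 hx))
      have := Finset.eq_of_subset_of_card_le hsub (by
        rw [List.toFinset_card_of_nodup hnd, hlen, Finset.card_range])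
      rw [← List.mem_toFinset, this, Finset.mem_range]
      exact hc
    rw [ev_gword, ev_gword] at hab
    exact List.inj_on_of_nodup_map (hpw.imp fun h => h.ne) (hperm a ha) (hperm b hb) (key_congr hab)
  · rcases e with ⟨u, v⟩ | ⟨j, x, y, x', y'⟩
    · trivial
    · have h := heq _ he
      simp only [eqnOK, Bool.and_eq_true] at h
      refine ⟨?_, ?_⟩ <;> rw [ev_gword, ev_gword, ← elt_append, ← elt_append]
      exacts [same_spec h.1, same_spec h.2]

end Cfsg.Agent.Lib.SchurMult.SpSix
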