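import Cfsg.Agent.Lib.SchurMult.EngineFast
import Cfsg.Agent.Lib.SchurMult.SpSix.Engine

/-! Kernel checks of the multiplier certificates. -/

set_option autoImplicit false
set_option maxRecDepth 100000

namespace Cfsg.Agent.Lib.SchurMult.SpSix

theorem tabTwo : dataTwo.tabOK tableTwo = true := by decide +kernel

theorem closed0 : Engine.Data.closed₂ 9 tableTwo 0 256 = true := by decide +kernel

theorem closed1 : Engine.Data.closed₂ 9 tableTwo 256 256 = true := by decide +kernel

theorem closedTwo : dataTwo.closedOK = true := by
  refine Engine.Data.closedOK_of_parts tabTwo [(0, 256), (256, 256)] ?_ ?_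
  · intro q hq
    simp only [List.mem_cons, List.not_mem_nil, or_false] at hq
    rcases hq with rfl | rfl
    exacts [closed0, closed1]
  · intro k hk
    have hk : k < 512 := hk
    by_cases h : k < 256
    · exact ⟨(0, 256), by simp, Nat.zero_le _, by simp only; omega⟩
    · exact ⟨(256, 256), by simp, by simp only; omega, by simp only; omega⟩

theorem ordTwo : dataTwo.ordOK = true := by decide +kernel

theorem eqsTwo : dataTwo.eqs.all dataTwo.eqOK = true := by decide +kernel

theorem linTwo : dataTwo.linOK dataTwo.table = true := by decide +kernel

theorem allTwo : dataTwo.allOK = true := by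
  simp only [Engine.Data.allOK, Bool.and_eq_true]
  exact ⟨⟨⟨closedTwo, ordTwo⟩, eqsTwo⟩, linTwo⟩

theorem relTwo : relOK dataTwo gensTwo = true := by decide +kernel

theorem keyTwo : keyOK dataTwo gensTwo sortedTwo keysTwo = true := by decide +kernel

theorem eqnTwo : dataTwo.eqs.all (eqnOK gensTwo conjTwo) = true := by decide +kernel

theorem allThree : dataThree.allOK = true := by decide +kernel

theorem relThree : relOK dataThree gensThree = true := by decide +kernel

theorem keyThree : keyOK dataThree gensThree sortedThree keysThree = true := by decide +kernel

theorem eqnThree : dataThree.eqs.all (eqnOK gensThree conjThree) = true := by decide +kernel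

end Cfsg.Agent.Lib.SchurMult.SpSix
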