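import Cfsg.Agent.Lib.SchurMult.SpSix.Engine
import Cfsg.Agent.Lib.SchurMult.SpSix.CoverData
import Cfsg.Agent.Lib.SchurMult.CyclicBound

/-!
A double cover of the symplectic group of dimension six over two elements inside the direct product with the
invertible matrices of degree eight over three elements: the lifts of the transvections are the matrices of
the Clifford algebra attached to the roots of type `E₇`.
-/

set_option autoImplicit false
set_option maxRecDepth 100000

namespace Cfsg.Agent.Lib.SchurMult.SpSix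

open Cfsg Cfsg.Agent.Lib Cfsg.Agent.Lib.Classical Matrix
open scoped commutatorElement

/-- The matrices of degree eight. -/
abbrev M8 := Matrix (Fin 8) (Fin 8) (ZMod 3)

/-- The matrix attached to a vector. -/
def G (v : ℕ) : M8 := Matrix.of fun i j => ((((gmTable.getD v []).getD i.1 []).getD j.1 0 : ℕ) : ZMod 3)

/-- The matrix of an axis. -/
def GA (k : Fin 7) : M8 := G (axes.getD k.1 0)

theorem gens_sq : ∀ v ∈ gensG, v < 64 ∧ G v * (-G v) = 1 ∧ (-G v) * G v = 1 := by decide +kernel

theorem gens_rel : ∀ v ∈ gensG, ∀ w < 64,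
    G v * G w = G (act v w) * G v ∨ G v * G w = -(G (act v w) * G v) := by decide +kernel

/-- The combination of axis matrices with signs attached to a vector. -/
def combWith (e : Fin 7 → ZMod 3) (w : ℕ) : M8 :=
  ((comb.getD w []).map fun ac => ((ac.2 : ZMod 3) * e (Fin.ofNat 7 ac.1)) • GA (Fin.ofNat 7 ac.1)).sum

theorem comb_spec : ∀ w ∈ [8, 16, 24, 32, 40, 48, 56], w < 64 ∧ combWith (fun _ => 1) w = G w := by
  decide +kernel

theorem axes_lt : ∀ k : Fin 7, axes.getD k.1 0 < 64 := by decide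

/-- A sign from a truth value. -/
def sg (b : Bool) : ZMod 3 := bif b then 1 else -1

theorem signs_one : ∀ e : Fin 7 → Bool,
    sg (e 0) * sg (e 1) * sg (e 2) * sg (e 3) * sg (e 4) * sg (e 5) * sg (e 6) = 1 →
    (∀ w ∈ [8, 16, 24, 32, 40, 48, 56],
      combWith (fun k => sg (e k)) w = G w ∨ combWith (fun k => sg (e k)) w = -G w) →
    ∀ k, e k = true := by
  decide +kernel

theorem axes_prod : GA 0 * GA 1 * GA 2 * GA 3 * GA 4 * GA 5 * GA 6 = 1 := by decide +kernel

/-- The triples of axes. -/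
def triples : List (Fin 7 × Fin 7 × Fin 7) :=
  [(0, 1, 2), (0, 3, 4), (0, 5, 6), (1, 3, 5), (1, 4, 6), (2, 3, 6), (2, 4, 5)]

theorem triples_diag : ∀ t ∈ triples, ∀ i j : Fin 8, i ≠ j → (GA t.1 * GA t.2.1 * GA t.2.2) i j = 0 := by
  decide +kernel

theorem triples_sep : ∀ j : Fin 8, j ≠ 0 → ∃ t ∈ triples,
    (GA t.1 * GA t.2.1 * GA t.2.2) j j ≠ (GA t.1 * GA t.2.1 * GA t.2.2) 0 0 := by
  decide +kernel

theorem axes_col : ∀ k : Fin 7, ∀ j : Fin 8,
    (j = ⟨k.1 + 1, by omega⟩ → GA k j 0 * GA k j 0 = 1) ∧ (j ≠ ⟨k.1 + 1, by omega⟩ → GA k j 0 = 0) := by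
  decide +kernel

/-- A matrix commuting with the axis matrices is scalar. -/
theorem scalar_of_commute {A : M8} (h : ∀ k, A * GA k = GA k * A) : A = A 0 0 • (1 : M8) := by
  have hd : ∀ t ∈ triples, ∀ j, (GA t.1 * GA t.2.1 * GA t.2.2) j j * A j 0 =
      A j 0 * (GA t.1 * GA t.2.1 * GA t.2.2) 0 0 := by
    intro t ht j
    set P := GA t.1 * GA t.2.1 * GA t.2.2 with hP
    have hc : A * P = P * A := by
      rw [hP, ← mul_assoc, ← mul_assoc, h, mul_assoc (GA t.1) A, h, ← mul_assoc, mul_assoc (GA t.1 * GA t.2.1) A, h,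
        ← mul_assoc]
    have h1 := congrFun (congrFun hc j) 0
    rw [Matrix.mul_apply, Matrix.mul_apply, Finset.sum_eq_single 0 ?_ (by simp), Finset.sum_eq_single j ?_ (by simp)] at h1
    · exact h1.symm
    · intro b _ hb
      have h' := triples_diag t ht j b (Ne.symm hb)
      rw [← hP] at h'
      simp [h']
    · intro b _ hb
      have h' := triples_diag t ht b 0 hb
      rw [← hP] at h'
      simp [h']
  have h0 : ∀ j, j ≠ 0 → A j 0 = 0 := fun j hj => by
    obtain ⟨t, ht, hne⟩ := triples_sep j hj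
    have := hd t ht j
    rw [mul_comm (A j 0)] at this
    by_contra hA
    exact hne (mul_right_cancel₀ hA this)
  ext j l
  by_cases hl : l = 0
  · subst hl
    by_cases hj : j = 0
    · subst hj; simp
    · simp [h0 j hj, hj]
  · have hl' : l.1 ≠ 0 := fun e => hl (Fin.ext e)
    have hl8 := l.2
    let k : Fin 7 := ⟨l.1 - 1, by omega⟩
    have hk : (⟨k.1 + 1, by omega⟩ : Fin 8) = l := Fin.ext (by simp only [k]; omega)
    have h1 := congrFun (congrFun (h k) j) 0
    rw [Matrix.mul_apply, Matrix.mul_apply, Finset.sum_eq_single l ?_ (by simp),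
      Finset.sum_eq_single 0 ?_ (by simp)] at h1
    · have hs := (axes_col k l).1 hk.symm
      by_cases hj : j = l
      · subst hj
        rw [mul_comm (GA k j 0)] at h1
        have hs0 : GA k j 0 ≠ 0 := fun e => by simp [e] at hs
        simp [mul_right_cancel₀ hs0 h1]
      · rw [(axes_col k j).2 (by rw [hk]; exact hj), zero_mul, mul_eq_zero] at h1
        rcases h1 with h1 | h1
        · simp [h1, Matrix.one_apply_ne hj]
        · exact absurd hs (by simp [h1])
    · intro b _ hb
      rw [h0 b hb, mul_zero]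
    · intro b _ hb
      rw [(axes_col k b).2 (by rw [hk]; exact hb), mul_zero]

theorem sign_cases : ∀ x : ZMod 3, x ≠ 0 → x = 1 ∨ x = -1 := by decide

/-- The lift of a generator. -/
def Gu (v : ℕ) : M8ˣ := if h : v ∈ gensG then ⟨G v, -G v, (gens_sq v h).2.1, (gens_sq v h).2.2⟩ else 1

theorem Gu_val {v : ℕ} (h : v ∈ gensG) : (Gu v : M8) = G v := by simp [Gu, h]

/-- The generators of the cover. -/
def liftGens : Set (M8ˣ × Sp) := (fun v => (Gu v, tv v)) '' {v | v ∈ gensG}

/-- The cover. -/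
noncomputable abbrev Cov : Subgroup (M8ˣ × Sp) := Subgroup.closure liftGens

/-- The matrix part maps each attached matrix to plus or minus the attached matrix of the image. -/
def Compat (x : M8ˣ × Sp) : Prop :=
  ∀ w < 64, ∃ w', w' < 64 ∧ (x.2 : Matrix (Fin 3 ⊕ Fin 3) (Fin 3 ⊕ Fin 3) (ZMod 2)) *ᵥ bits w = bits w' ∧
    ((x.1 : M8) * G w = G w' * x.1 ∨ (x.1 : M8) * G w = -(G w' * x.1))

theorem compat_of_mem {x : M8ˣ × Sp} (hx : x ∈ Cov) : Compat x := by
  induction hx using Subgroup.closure_induction with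
  | mem x hx =>
    obtain ⟨v, hv, rfl⟩ := hx
    intro w hw
    refine ⟨act v w, (act_formula v (gens_sq v hv).1 w hw).1, tv_mulVec (gens_sq v hv).1 hw, ?_⟩
    rw [Gu_val hv]
    exact gens_rel v hv w hw
  | one => exact fun w hw => ⟨w, hw, by simp, Or.inl (by simp)⟩
  | mul x y _ _ hx hy =>
    intro w hw
    obtain ⟨u, hu, e1, r1⟩ := hy w hw
    obtain ⟨z, hz, e2, r2⟩ := hx u hu
    refine ⟨z, hz, by rw [Prod.snd_mul, Submonoid.coe_mul, ← mulVec_mulVec, e1, e2], ?_⟩
    rw [Prod.fst_mul, Units.val_mul, mul_assoc]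
    rcases r1 with r1 | r1 <;> rcases r2 with r2 | r2 <;>
      simp only [r1, mul_neg, ← mul_assoc, r2, neg_mul, neg_neg, true_or, or_true]
  | inv x _ hx =>
    intro w hw
    obtain ⟨u, hu, he⟩ := bits_surj ((x.2⁻¹ : Sp).1 *ᵥ bits w)
    obtain ⟨z, hz, e1, r1⟩ := hx u hu
    have hzw : z = w := bits_inj z hz w hw (by
      rw [← e1, he, mulVec_mulVec, ← Submonoid.coe_mul, mul_inv_cancel, Submonoid.coe_one, one_mulVec])
    subst hzw
    refine ⟨u, hu, he.symm, ?_⟩
    rw [Prod.fst_inv]
    rcases r1 with r1 | r1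
    · refine Or.inl ((Units.eq_mul_inv_iff_mul_eq _).2 ?_)
      rw [mul_assoc, ← r1, ← mul_assoc, Units.inv_mul, one_mul]
    · refine Or.inr ?_
      rw [← neg_mul, Units.eq_mul_inv_iff_mul_eq, mul_assoc, eq_neg_iff_add_eq_zero.2 (show
        G z * (x.1 : M8) + (x.1 : M8) * G u = 0 by rw [r1, add_neg_cancel]), mul_neg, ← mul_assoc,
        Units.inv_mul, one_mul]

/-- An element of the cover over the identity is plus or minus one. -/
theorem fst_of_snd_eq_one {x : M8ˣ × Sp} (hx : x ∈ Cov) (h1 : x.2 = 1) :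
    (x.1 : M8) = 1 ∨ (x.1 : M8) = -1 := by
  have hc := compat_of_mem hx
  set A : M8 := (x.1 : M8) with hA
  have hinv : IsUnit A := x.1.isUnit
  have hw : ∀ w < 64, A * G w = G w * A ∨ A * G w = -(G w * A) := by
    intro w hw
    obtain ⟨z, hz, e1, r⟩ := hc w hw
    rw [h1, Submonoid.coe_one, one_mulVec] at e1
    rwa [← bits_inj w hw z hz e1] at r
  have hax : ∀ k : Fin 7, ∃ b : Bool, A * GA k = sg b • (GA k * A) := fun k => by
    rcases hw _ (axes_lt k) with h | h
    · exact ⟨true, by simpa [GA, sg] using h⟩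
    · exact ⟨false, by simpa [GA, sg] using h⟩
  choose e he using hax
  have hm : ∀ {P P' : M8} {s s' : ZMod 3}, A * P = s • (P * A) → A * P' = s' • (P' * A) →
      A * (P * P') = (s * s') • ((P * P') * A) := by
    intro P P' s s' a b
    rw [← mul_assoc, a, smul_mul_assoc, mul_assoc, b, mul_smul_comm, smul_smul, mul_assoc]
  have hprod := hm (hm (hm (hm (hm (hm (he 0) (he 1)) (he 2)) (he 3)) (he 4)) (he 5)) (he 6)
  rw [axes_prod, mul_one, one_mul] at hprod
  have hs1 : sg (e 0) * sg (e 1) * sg (e 2) * sg (e 3) * sg (e 4) * sg (e 5) * sg (e 6) = 1 := by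
    set s := sg (e 0) * sg (e 1) * sg (e 2) * sg (e 3) * sg (e 4) * sg (e 5) * sg (e 6)
    obtain ⟨B, hB⟩ := hinv.exists_right_inv
    have := congrFun (congrFun (congrArg (· * B) hprod) 0) 0
    simp only [smul_mul_assoc, hB, Matrix.smul_apply, Matrix.one_apply_eq, smul_eq_mul, mul_one] at this
    exact this.symm
  have hall : ∀ w ∈ [8, 16, 24, 32, 40, 48, 56],
      combWith (fun k => sg (e k)) w = G w ∨ combWith (fun k => sg (e k)) w = -G w := by
    intro w hwl
    obtain ⟨hlt, hG⟩ := comb_spec w hwl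
    have key : A * combWith (fun _ => 1) w = combWith (fun k => sg (e k)) w * A := by
      simp only [combWith, mul_one]
      generalize comb.getD w [] = l
      induction l with
      | nil => simp
      | cons a l ih =>
        simp only [List.map_cons, List.sum_cons, mul_add, add_mul, ih, mul_smul_comm, he, smul_smul,
          smul_mul_assoc]
    rw [hG] at key
    rcases hw w hlt with h | h
    · exact Or.inl (hinv.mul_right_cancel (key.symm.trans h))
    · exact Or.inr (hinv.mul_right_cancel (key.symm.trans (h.trans (neg_mul _ _).symm)))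
  have hsg := signs_one e hs1 hall
  have hcomm : ∀ k, A * GA k = GA k * A := fun k => by simp [he k, hsg k, sg]
  have hscal := scalar_of_commute hcomm
  have h00 : A 0 0 ≠ 0 := fun h => by
    obtain ⟨B, hB⟩ := hinv.exists_right_inv
    rw [hscal, h, zero_smul, zero_mul] at hB
    exact absurd (congrFun (congrFun hB 0) 0) (by simp)
  rcases sign_cases _ h00 with h | h
  · exact Or.inl (by rw [hscal, h, one_smul])
  · exact Or.inr (by rw [hscal, h, neg_one_smul])

/-- The map onto the simple group. -/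
noncomputable def proj : ↥Cov →* Q :=
  (QuotientGroup.mk' (Subgroup.center Sp)).comp ((MonoidHom.snd M8ˣ Sp).comp Cov.subtype)

theorem tv_conj {u w : ℕ} (hu : u < 64) (hw : w < 64) : tv u * tv w * (tv u)⁻¹ = tv (act u w) := by
  rw [show tv w = spT 3 (bits w) 1 from rfl, spT_conj, tv_mulVec hu hw]
  rfl

theorem steps_ok : (∀ s ∈ steps, s.2.1 ∈ gensG ∧ s.2.2 < 64 ∧ act s.2.1 s.2.2 = s.1) ∧
    (∀ i < steps.length, (steps.getD i (0, 0, 0)).2.2 ∈ gensG ++ (steps.take i).map Prod.fst) ∧
    ∀ v < 64, v = 0 ∨ v ∈ gensG ++ steps.map Prod.fst := by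
  decide +kernel

theorem proj_surjective : Function.Surjective proj := by
  set H : Subgroup Sp := Cov.map (MonoidHom.snd M8ˣ Sp) with hH
  have hgen : ∀ v ∈ gensG, tv v ∈ H := fun v hv => ⟨(Gu v, tv v), Subgroup.subset_closure ⟨v, hv, rfl⟩, rfl⟩
  obtain ⟨s1, s2, s3⟩ := steps_ok
  have hind : ∀ i ≤ steps.length, ∀ v ∈ gensG ++ (steps.take i).map Prod.fst, tv v ∈ H := by
    intro i
    induction i with
    | zero =>
      intro _ v hv
      exact hgen v (by simpa using hv)
    | succ i ih =>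
      intro hi v hv
      rw [List.take_succ_eq_append_getElem (by omega), List.map_append, List.mem_append, List.mem_append] at hv
      rcases hv with hv | hv | hv
      · exact hgen v hv
      · exact ih (by omega) v (List.mem_append_right _ hv)
      · simp only [List.map_cons, List.map_nil, List.mem_singleton] at hv
        subst hv
        obtain ⟨hu, hw, he⟩ := s1 _ (List.getElem_mem (show i < steps.length by omega))
        rw [← he, ← tv_conj (gens_sq _ hu).1 hw]
        have hwm := s2 i (by omega)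
        rw [List.getD_eq_getElem _ _ (by omega)] at hwm
        exact mul_mem (mul_mem (hgen _ hu) (ih (by omega) _ hwm)) (inv_mem (hgen _ hu))
  have htop : H = ⊤ := by
    refine sp_eq_top_of_spT 3 H fun f c => ?_
    obtain ⟨v, hv, rfl⟩ := bits_surj f
    have hc : ∀ c : ZMod 2, c = 0 ∨ c = 1 := by decide
    rcases hc c with rfl | rfl
    · rw [spT_zero_right]; exact one_mem _
    rcases s3 v hv with rfl | hm
    · rw [show bits 0 = 0 from funext fun i => by simp [bits], spT_zero]; exact one_mem _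
    · exact hind steps.length le_rfl v (by rwa [List.take_length])
  intro q
  obtain ⟨g, rfl⟩ := QuotientGroup.mk'_surjective _ q
  obtain ⟨x, hx, rfl⟩ : g ∈ H := htop ▸ Subgroup.mem_top g
  exact ⟨⟨x, hx⟩, rfl⟩

/-- The central element. -/
def minusOne : M8ˣ × Sp := (-1, 1)

theorem witness : (25 ∈ gensG ∧ 39 ∈ gensG) ∧ G 25 * G 39 * (-G 25) * (-G 39) = -1 ∧ act 25 39 = 39 := by
  decide +kernel

theorem commutator_witness :
    ⁅((Gu 25, tv 25) : M8ˣ × Sp), (Gu 39, tv 39)⁆ = minusOne := by
  obtain ⟨⟨m1, m2⟩, e, hact⟩ := witness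
  rw [commutatorElement_def]
  refine Prod.ext (Units.ext ?_) ?_
  · simpa [Gu, m1, m2, minusOne] using e
  · show tv 25 * tv 39 * (tv 25)⁻¹ * (tv 39)⁻¹ = 1
    rw [tv_conj (by norm_num) (by norm_num), hact, mul_inv_cancel]

theorem exists_cover : ∃ (Γ : Type) (_ : Group Γ) (_ : Finite Γ) (σ : Γ →* Q),
    Cfsg.IsStemExtension σ ∧ Nat.card σ.ker = 2 := by
  haveI : Finite ↥Cov := inferInstance
  have hmem : minusOne ∈ Cov := by
    rw [← commutator_witness, commutatorElement_def]
    have a : ((Gu 25, tv 25) : M8ˣ × Sp) ∈ Cov := Subgroup.subset_closure ⟨25, witness.1.1, rfl⟩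
    have b : ((Gu 39, tv 39) : M8ˣ × Sp) ∈ Cov := Subgroup.subset_closure ⟨39, witness.1.2, rfl⟩
    exact mul_mem (mul_mem (mul_mem a b) (inv_mem a)) (inv_mem b)
  set z : ↥Cov := ⟨minusOne, hmem⟩ with hz
  have hker : ∀ y : ↥Cov, y ∈ proj.ker ↔ y = 1 ∨ y = z := by
    intro y
    rw [MonoidHom.mem_ker]
    constructor
    · intro h
      have h2 : y.1.2 = 1 := by
        have : y.1.2 ∈ Subgroup.center Sp := (QuotientGroup.eq_one_iff _).1 h
        rwa [center_eq_bot, Subgroup.mem_bot] at this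
      rcases fst_of_snd_eq_one y.2 h2 with h | h
      · exact Or.inl (Subtype.ext (Prod.ext (Units.ext h) h2))
      · exact Or.inr (Subtype.ext (Prod.ext (Units.ext h) h2))
    · rintro (rfl | rfl)
      · exact map_one _
      · exact map_one (QuotientGroup.mk' (Subgroup.center Sp))
  have hzc : z ∈ Subgroup.center ↥Cov := Subgroup.mem_center_iff.2 fun y =>
    Subtype.ext (Prod.ext (by simp [hz, minusOne]) (by simp [hz, minusOne]))
  have hzk : z ∈ commutator ↥Cov := by
    have a : ((Gu 25, tv 25) : M8ˣ × Sp) ∈ Cov := Subgroup.subset_closure ⟨25, witness.1.1, rfl⟩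
    have b : ((Gu 39, tv 39) : M8ˣ × Sp) ∈ Cov := Subgroup.subset_closure ⟨39, witness.1.2, rfl⟩
    have : z = ⁅(⟨_, a⟩ : ↥Cov), ⟨_, b⟩⁆ := Subtype.ext commutator_witness.symm
    rw [this, commutator_def]
    exact Subgroup.commutator_mem_commutator (Subgroup.mem_top _) (Subgroup.mem_top _)
  refine ⟨↥Cov, inferInstance, inferInstance, proj, ⟨proj_surjective, ?_, ?_⟩, ?_⟩
  · intro y hy
    rcases (hker y).1 hy with rfl | rfl
    exacts [one_mem _, hzc]
  · intro y hy
    rcases (hker y).1 hy with rfl | rfl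
    exacts [one_mem _, hzk]
  · have hne : (1 : ↥Cov) ≠ z := fun h => by
      have : (1 : M8) = -1 := congrArg (fun y : ↥Cov => (y.1.1 : M8)) h
      exact absurd (congrFun (congrFun this 0) 0) (by decide)
    have hset : (proj.ker : Set ↥Cov) = {1, z} := Set.ext fun y => (hker y).trans (by simp)
    rw [show Nat.card proj.ker = Nat.card ({1, z} : Set ↥Cov) from Nat.card_congr (Equiv.setCongr hset),
      Nat.card_coe_set_eq, Set.ncard_pair hne]

end Cfsg.Agent.Lib.SchurMult.SpSix
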