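import Cfsg.Agent.Lib.SchurMult.SpSix.Checks
import Cfsg.Agent.Lib.SchurMult.SpSix.Cover
import Cfsg.Agent.Lib.SchurMult.MathieuCommon
import Cfsg.Agent.Lib.Classical.SympOrder

/-!
The multiplier of the symplectic group of dimension six over two elements has order two.
-/

set_option autoImplicit false
set_option maxRecDepth 100000

namespace Cfsg.Agent.Lib.SchurMult.SpSix

open Cfsg Cfsg.Agent.Lib

theorem card_Q : Nat.card Q = 2 ^ 9 * 3 ^ 4 * 5 * 7 := by
  have h := Subgroup.card_eq_card_quotient_mul_card_subgroup (Subgroup.center Sp)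
  rw [center_eq_bot, Subgroup.card_bot, mul_one, ← center_eq_bot, Classical.card_symplecticGroup, ZMod.card] at h
  rw [← h]
  norm_num [Finset.prod_range_succ]

theorem bound_two (Δ : Type) [Group Δ] [Finite Δ] (τ : Δ →* Q) (hτ : Cfsg.IsStemExtension τ) :
    Nat.card τ.ker ∣ 2 := by
  refine (Nat.dvd_iff_prime_pow_dvd_dvd _ _).2 fun r k hr hk => ?_
  haveI := Fact.mk hr
  by_cases h2 : r = 2
  · subst h2
    exact bound (p := 2) hτ rfl allTwo relTwo keyTwo eqnTwo
      (Mathieu.factorization_of (r := 2835) Nat.prime_two (by rw [card_Q]; rfl) (by decide)) hk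
  by_cases h3 : r = 3
  · subst h3
    exact (bound (p := 3) hτ rfl allThree relThree keyThree eqnThree
      (Mathieu.factorization_of (r := 17920) Nat.prime_three (by rw [card_Q]; rfl) (by decide)) hk).trans
      (one_dvd 2)
  rcases Nat.eq_zero_or_pos k with rfl | hk0
  · simp
  exfalso
  refine SchurMult.not_dvd_ker_of_sq hτ ?_ ((dvd_pow_self r hk0.ne').trans hk)
  rw [card_Q]
  intro hd
  exact Mathieu.sq_not_dvd (a := 9) (b := 4) hr rfl h2 h3 (hd.trans ⟨11 * 23, by norm_num⟩)

theorem hasTwo : Cfsg.HasCyclicSchurMultiplier Q 2 := by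
  obtain ⟨Γ, _, _, σ, hσ, hcard⟩ := exists_cover
  exact SchurMult.hasCyclic_of_cover σ (MulEquiv.refl _) hσ Nat.prime_two.squarefree hcard bound_two

end Cfsg.Agent.Lib.SchurMult.SpSix
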